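import Cfsg.Agent.LV.One.All
import Cfsg.Agent.KZ.DatX.Weyl

/-!
# LV, regular classes of the exceptional data (helper63)

* `RegE.tc` : regularity only depends on the class; `regE_of_elt` : the criterion for inner twists;
* `regC`, `regE_word` : the kernel check for a word.
-/

set_option autoImplicit false
set_option linter.unusedSectionVars false

namespace Cfsg.Agent.LV.One

open Cfsg Cfsg.Lie Cfsg.Agent.DL Cfsg.Agent.DL.PP Matrix Cfsg.Agent.KZ.Lie Cfsg.Agent.KZ.DatX Cfsg.Agent.Nodes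
  Cfsg.Agent.ChevalleyStructure.CoxeterGeomTypes Cfsg.Agent.Nodes.RGDChev

section

variable {p : ℕ} [Fact p.Prime] {k : Type} [Field k] [CharP k p] {Y : Type} [Group Y] {N : Type} [Fintype N]
  [DecidableEq N] {ρ : Y →* GL N k} {F : MulAut Y} {G : Subgroup Y} [IsAlgClosed k] {D : Datum p ρ F G} {v w w' : D.W}

theorem RegE.tc (h : RegE D w) (ht : Tc D v w w') : RegE D w' := by
  obtain ⟨μ, y, h1, h2⟩ := h
  have h3 : ∀ A B : Matrix D.R D.R ℤ, (A * B).map (Int.cast : ℤ → ℂ) = A.map Int.cast * B.map Int.cast := fun A B =>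
    Matrix.map_mul (f := Int.castRingHom ℂ)
  refine ⟨μ, (D.Wm v).map Int.cast *ᵥ y, ?_, fun a ha => ?_⟩
  · rw [mulVec_mulVec, ← h3, mul_assoc, D.Mx_Wm, ← mul_assoc, ← D.Wm_mul, show w' * D.Fw v = v * w from ht, D.Wm_mul,
      mul_assoc, h3, ← mulVec_mulVec, ← mulVec_smul, h1]
  · rw [dotProduct_mulVec]
    refine (congrArg (· ⬝ᵥ y) (funext fun i => ?_)).trans_ne (h2 _ (ha.act v⁻¹))
    rw [D.wt_act', ← eq_intCast (Int.castRingHom ℂ), RingHom.map_vecMul]
    rfl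

/-- the criterion if `w F` acts as a multiple of an element of the Weyl group -/
theorem regE_of_elt {q μ : ℤ} {r : ℕ} (hA : D.Wm w * D.Mx = q • D.Wm v) (hq : q ≠ 0) (hr : r.Prime)
    (hW : ¬ r ∣ Nat.card D.W) (hμ : ¬ (r : ℤ) ∣ μ) {z : D.R → ℤ} (h1 : ∀ i, (r : ℤ) ∣ (D.Wm v *ᵥ z - μ • z) i)
    (h2 : ∀ a, D.Rt a → ¬ (r : ℤ) ∣ D.wt a ⬝ᵥ z) : RegE D w :=
  regE_of_mod (e := 1) hA hq (by
    rw [one_smul]
    exact (map_pow D.WmHom v _).symm.trans (by rw [pow_card_eq_one', map_one])) hr hW hμ h1 h2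

end

variable {C : ChevalleyDatum} {l : ℕ} {M : CoxeterMatrix (Fin l)}

/-- `z` is a regular eigenvector of the word `L` modulo `r` -/
def regC (C : ChevalleyDatum) (A : List (List ℤ)) (L : List (Fin l)) (r : ℕ) (μ : ℤ) (z : List ℤ) : Bool :=
  z.length == l && μ % r != 0 && (app A L z).map (· % (r : ℤ)) == z.map (fun a => μ * a % r) &&
    (List.range C.nroots).all fun n => (List.zipWith (· * ·) (List.ofFn (RGDChev.vec C l n)) z).sum % r != 0

variable {hp : IsType C l M} {p : ℕ} [Fact p.Prime] {k : Type} [Field k] [CharP k p] [IsAlgClosed k]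
  {Mx : Matrix (Fin l) (Fin l) ℤ}

/-- **The kernel check for a word.** -/
theorem regE_word (X : XF hp p k Mx) {w : X.D.W} {q μ : ℤ} {L : List (Fin l)}
    (hA : X.D.Wm w * X.D.Mx = q • X.D.Wm (M.toCoxeterSystem.wordProd L)) (hq : q ≠ 0) {A : List (List ℤ)} (hC : IsRows C l A)
    {r : ℕ} (hr : r.Prime) (hW : ¬ r ∣ Nat.card M.Group) {z : List ℤ} (h : regC C A L r μ z = true) : RegE X.D w := by
  simp only [regC, Bool.and_eq_true, beq_iff_eq, bne_iff_ne, List.all_eq_true, List.mem_range] at h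
  obtain ⟨⟨⟨h1, h2⟩, h3⟩, h4⟩ := h
  obtain ⟨y, rfl⟩ : ∃ y : Fin l → ℤ, z = List.ofFn y := ⟨fun i => z.get (i.cast h1.symm), by subst h1; simp⟩
  refine regE_of_elt hA hq hr hW (fun e => h2 (Int.emod_eq_zero_of_dvd e)) (z := y) (fun i => ?_) fun a ha e => ?_
  · rw [app_ofFn hC, List.map_ofFn, List.map_ofFn, ← X.Wm_word] at h3
    exact Int.ModEq.dvd (congrFun (List.ofFn_injective h3) i).symm
  · obtain ⟨n, h5, rfl⟩ := (X.rt_iff a).1 ha
    refine h4 n h5 (Int.emod_eq_zero_of_dvd (e.trans (dvd_of_eq ?_)))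
    rw [show List.zipWith (· * ·) (List.ofFn (RGDChev.vec C l n)) (List.ofFn y) = List.ofFn fun i => RGDChev.vec C l n i * y i by
      apply List.ext_getElem <;> simp, List.sum_ofFn]
    rfl

/-- the Coxeter element of `E₈` -/
example : regC chevE8 rowsE8 ([0, 1, 2, 3, 4, 5, 6, 7] : List (Fin 8)) 31 3 [25, 9, 29, 11, 14, 15, 5, 12] = true := by decide +kernel

end Cfsg.Agent.LV.One
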